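import Cfsg.Agent.Lib.FT.P.BG1
import Cfsg.Agent.Lib.FT.P.BG10a
import Cfsg.Agent.Lib.FT.P.BG10b
import Cfsg.Agent.Lib.FT.P.BG11
import Cfsg.Agent.Lib.FT.P.BG12a
import Cfsg.Agent.Lib.FT.P.BG12b
import Cfsg.Agent.Lib.FT.P.BG12c
import Cfsg.Agent.Lib.FT.P.BG13a
import Cfsg.Agent.Lib.FT.P.BG13b
import Cfsg.Agent.Lib.FT.P.BG14a
import Cfsg.Agent.Lib.FT.P.BG14b
import Cfsg.Agent.Lib.FT.P.BG14c
import Cfsg.Agent.Lib.FT.P.BG15a
import Cfsg.Agent.Lib.FT.P.BG15b
import Cfsg.Agent.Lib.FT.P.BG16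
import Cfsg.Agent.Lib.FT.P.BG2a
import Cfsg.Agent.Lib.FT.P.BG2b
import Cfsg.Agent.Lib.FT.P.BG2c
import Cfsg.Agent.Lib.FT.P.BG3a
import Cfsg.Agent.Lib.FT.P.BG3b
import Cfsg.Agent.Lib.FT.P.BG4a2
import Cfsg.Agent.Lib.FT.P.BG4b2
import Cfsg.Agent.Lib.FT.P.BG4c
import Cfsg.Agent.Lib.FT.P.BG5
import Cfsg.Agent.Lib.FT.P.BG6
import Cfsg.Agent.Lib.FT.P.BG7
import Cfsg.Agent.Lib.FT.P.BG8
import Cfsg.Agent.Lib.FT.P.BG9
import Cfsg.Agent.Lib.FT.P.BGC
import Cfsg.Agent.Lib.FT.P.PF10a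
import Cfsg.Agent.Lib.FT.P.PF10b
import Cfsg.Agent.Lib.FT.P.PF10c
import Cfsg.Agent.Lib.FT.P.PF11a
import Cfsg.Agent.Lib.FT.P.PF11b
import Cfsg.Agent.Lib.FT.P.PF11c
import Cfsg.Agent.Lib.FT.P.PF12a
import Cfsg.Agent.Lib.FT.P.PF12b
import Cfsg.Agent.Lib.FT.P.PF13a
import Cfsg.Agent.Lib.FT.P.PF13b
import Cfsg.Agent.Lib.FT.P.PF13c
import Cfsg.Agent.Lib.FT.P.PF13d
import Cfsg.Agent.Lib.FT.P.PF13e
import Cfsg.Agent.Lib.FT.P.PF14a
import Cfsg.Agent.Lib.FT.P.PF14b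
import Cfsg.Agent.Lib.FT.P.PF14c
import Cfsg.Agent.Lib.FT.P.PF14d
import Cfsg.Agent.Lib.FT.P.PF2
import Cfsg.Agent.Lib.FT.P.PF3a
import Cfsg.Agent.Lib.FT.P.PF3b
import Cfsg.Agent.Lib.FT.P.PF4a
import Cfsg.Agent.Lib.FT.P.PF4b
import Cfsg.Agent.Lib.FT.P.PF5a
import Cfsg.Agent.Lib.FT.P.PF5b
import Cfsg.Agent.Lib.FT.P.PF6a
import Cfsg.Agent.Lib.FT.P.PF6b
import Cfsg.Agent.Lib.FT.P.PF7
import Cfsg.Agent.Lib.FT.P.PF8g
import Cfsg.Agent.Lib.FT.P.PF9a
import Cfsg.Agent.Lib.FT.P.PF9b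
import Cfsg.Agent.Lib.FT.Main0

/-! Assembly of the proof of the odd order theorem, relative to (9.11). -/

namespace Cfsg.Agent.FT

universe u

namespace Asm

scoped instance iBG1 : BG1.{u} := BG1.proof
scoped instance iBG2a : BG2a.{u} := BG2a.proof
scoped instance iBG2b : BG2b.{u} := BG2b.proof
scoped instance iBG2c : BG2c.{u} := BG2c.proof
scoped instance iBG3b : BG3b.{u} := BG3b.proof
scoped instance iBG3a : BG3a.{u} := BG3a.proof
scoped instance iBG4a : BG4a.{u} := BG4a.proof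
scoped instance iBG4b : BG4b.{u} := BG4b.proof
scoped instance iBG4c : BG4c.{u} := BG4c.proof
scoped instance iBG5 : BG5.{u} := BG5.proof
scoped instance iBG6 : BG6.{u} := BG6.proof
scoped instance iBG7 : BG7.{u} := BG7.proof
scoped instance iBG8 : BG8.{u} := BG8.proof
scoped instance iBG9 : BG9.{u} := BG9.proof
scoped instance iBG10a : BG10a.{u} := BG10a.proof
scoped instance iBG10b : BG10b.{u} := BG10b.proof
scoped instance iBG11 : BG11.{u} := BG11.proof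
scoped instance iBG12a : BG12a.{u} := BG12a.proof
scoped instance iBG12b : BG12b.{u} := BG12b.proof
scoped instance iBG12c : BG12c.{u} := BG12c.proof
scoped instance iBG13a : BG13a.{u} := BG13a.proof
scoped instance iBG13b : BG13b.{u} := BG13b.proof
scoped instance iBG14a : BG14a.{u} := BG14a.proof
scoped instance iBG14b : BG14b.{u} := BG14b.proof
scoped instance iBG14c : BG14c.{u} := BG14c.proof
scoped instance iBG15a : BG15a.{u} := BG15a.proof
scoped instance iBG15b : BG15b.{u} := BG15b.proof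
scoped instance iBG16 : BG16.{u} := BG16.proof
scoped instance iBGC : BGC.{u} := BGC.proof
scoped instance iPF2 : PF2.{u} := PF2.proof
scoped instance iPF3a : PF3a.{u} := PF3a.proof
scoped instance iPF3b : PF3b.{u} := PF3b.proof
scoped instance iPF4a : PF4a.{u} := PF4a.proof
scoped instance iPF4b : PF4b.{u} := PF4b.proof
scoped instance iPF5a : PF5a.{u} := PF5a.proof
scoped instance iPF8g : PF8g.{u} := PF8g.proof
scoped instance iPF5b : PF5b.{u} := PF5b.proof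
scoped instance iPF6a : PF6a.{u} := PF6a.proof
scoped instance iPF6b : PF6b.{u} := PF6b.proof
scoped instance iPF7 : PF7.{u} := PF7.proof
scoped instance iPF9a : PF9a.{u} := PF9a.proof
scoped instance iPF9b : PF9b.{u} := PF9b.proof
scoped instance iPF10a : PF10a.{u} := PF10a.proof
scoped instance iPF10b : PF10b.{u} := PF10b.proof

end Asm

open Asm in
theorem oddOrder_of_PF9c [PF9c.{u}] : OddOrderThm.{u} := by
  have : PF10c.{u} := PF10c.proof
  have : PF11a.{u} := PF11a.proof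
  have : PF11b.{u} := PF11b.proof
  have : PF11c.{u} := PF11c.proof
  have : PF12a.{u} := PF12a.proof
  have : PF12b.{u} := PF12b.proof
  have : PF13a.{u} := PF13a.proof
  have : PF13b.{u} := PF13b.proof
  have : PF13c.{u} := PF13c.proof
  have : PF13d.{u} := PF13d.proof
  have : PF13e.{u} := PF13e.proof
  have : PF14a.{u} := PF14a.proof
  have : PF14b.{u} := PF14b.proof
  have : PF14c.{u} := PF14c.proof
  have : PF14d.{u} := PF14d.proof
  exact oddOrder_of_PF14d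

end Cfsg.Agent.FT
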